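import Cfsg.Agent.H470.EPO.OwnR1Fin
import Cfsg.Agent.H424.EPX.OwnG
import Cfsg.Agent.H515.EPO.KTwoDQ

/-!
# `OwnR1 p G` for `G` simple with `HasCan p G` (helper470), `G = ²F₄(q)`
-/

set_option autoImplicit false
set_option linter.unusedSectionVars false

namespace Cfsg.Agent.H470.EPO

open Cfsg.Agent.H284 Cfsg.Agent.H737.EPO Cfsg.Agent.H209.EPX Cfsg.Agent.KFacts.RgdFilt Cfsg.Agent.H542.EPX
open Cfsg.Agent.H424.EPX

/-- **`OwnR1 p G`** for `HasCan p G`, from the four families and the small groups. -/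
theorem ownR1_can (hR : R1All) {G : Type} [Group G] [Finite G] [IsSimpleGroup G] {p : ℕ} [Fact p.Prime]
    (hG : HasCan p G)
    (hsm : ∀ (H N : Subgroup G) (T : Type) [Group T] (e : N ≃* (Fin 1 → T)), EPS H N e → SmallR1 p T → False) :
    OwnR1 p G := by
  intro H N T _ k e h hT
  have hsimp := h.simple
  have hfin : Finite T := finite_of_eps h
  have hk : k = 1 := by
    obtain ⟨D⟩ := r1_data hR h.nab hT
    exact H515.EPO.KTwo.k_eq_one_R1_dq h D fun e' J hJ => hG.dq h D.psys e' J hJ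
  subst hk
  rcases rankOne_cases hR hT with h1 | ⟨D, hD⟩
  · exact hsm H N T e h h1
  · exact hG.own_r1 h h D hD

/-- `SmallR1 2 T` : `T ≅ PSL₂(4)` -/
theorem smallR1_two {T : Type} [Group T] (h : SmallR1 2 T) :
    ∃ (F : Type) (_ : Field F) (_ : Fintype F) (_ : CharP F 2), Fintype.card F = 4 ∧
      Nonempty (T ≃* Matrix.ProjectiveSpecialLinearGroup (Fin 2) F) := by
  have key : ∀ (F : Type) (_ : Field F) (_ : Fintype F) (_ : CharP F 2), 2 ∣ Fintype.card F := by
    intro F i1 i2 i3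
    obtain ⟨n, hp, hc⟩ := FiniteField.card F 2
    rw [hc]
    exact dvd_pow_self 2 n.ne_zero
  rcases h with ⟨F, i1, i2, i3, hF, e⟩ | ⟨F, i1, i2, i3, q, hF, hq, -⟩
  · have h2 := key F i1 i2 i3
    exact ⟨F, i1, i2, i3, by omega, e⟩
  · exfalso
    have h2 := key F i1 i2 i3
    rw [hF] at h2
    rcases hq with rfl | rfl <;> omega

/-- **`²F₄(q)`, own characteristic**: from the four families, the small case `PSL₂(4)` and `OwnQ2`. -/
theorem own_tf4 (hR : R1All) {G : Type} [Group G] [Finite G] [IsSimpleGroup G] (hG : Lie.Iso2F4 G)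
    (hsm : ∀ (H N : Subgroup G) (T : Type) [Group T] (e : N ≃* (Fin 1 → T)), EPS H N e →
      (∃ (F : Type) (_ : Field F) (_ : Fintype F) (_ : CharP F 2), Fintype.card F = 4 ∧
        Nonempty (T ≃* Matrix.ProjectiveSpecialLinearGroup (Fin 2) F)) → False)
    (h2 : OwnQ2 G) : Own 2 G :=
  have _hfact : Fact (Nat.Prime 2) := ⟨Nat.prime_two⟩
  H424.EPX.own_G (hasCan_TF4 hG) h2 (ownR1_can hR (hasCan_TF4 hG) fun H N T _ e h hT => hsm H N T e h (smallR1_two hT))

end Cfsg.Agent.H470.EPO
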