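import Cfsg.Agent.H470.EPO.OwnR1

/-!
# Own characteristic, rank one: an element of order `p` which centralises the torus (helper470)

`exists_y_cent` / `exists_cent_G` : no hypothesis on `T` besides `R1 p T`.
-/

set_option autoImplicit false
set_option linter.unusedSectionVars false

namespace Cfsg.Agent.H470.EPO

open Cfsg.Agent.H284 Cfsg.Agent.H284.EPT Cfsg.Agent.H737.EPO Cfsg.Agent.H209.EPX Cfsg.Agent.KFacts.RgdFilt

section

variable {G T : Type*} [Group G] [Finite G] [Group T] [Finite T] [IsSimpleGroup T] {H N : Subgroup G} {k : ℕ}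
  (e : N ≃* (Fin k → T)) {p : ℕ} [Fact p.Prime] (D : R1 p T)

/-- **an element `y ∉ H`, a `p`-element which centralises the torus `TT = T0 ^ k`** -/
theorem exists_y_cent (hY : ∃ a b : T, a * b ≠ b * a) (h : EP H) (hN : MinN N H)
    (hDQ : DQ (p := p) H e D.psys fun _ => ∅) :
    ∃ y : G, y ∉ H ∧ (∀ t ∈ TT e D, y * t = t * y) ∧ ∃ m : ℕ, y ^ p ^ m = 1 := by
  obtain ⟨E, Q, hVE, hEM, hEp, hEn, hQp, hQn, hEQ, hQH, hQE⟩ := hDQ
  obtain ⟨W, hWQ, hWE, v⟩ := exists_vecB (Fact.out : p.Prime) hEn hQp hQn hEQ hQH hQE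
  set M := PH H e D.psys fun _ => ∅ with hMdef
  have hMH : M ≤ H := inf_le_left
  have hEH : E ≤ H := hEM.trans hMH
  have hone : ∀ x ∈ W, x ∉ E → H ⊓ cj x H = M := by
    intro x hx hxE
    refine two_over_U e D hY h hN ⟨x, v.notMem_H hx hxE, rfl⟩ (hVE.trans (le_inf hEH ?_))
    have h1 : cj x E = E := cj_eq_of_nm (v.WD x hx)
    rw [← h1]
    exact cj_mono hEH
  have hcj : ∀ x ∈ W, x ∉ E → cj x M = M := by
    intro x hx hxE
    have h1 := hone x hx hxE
    have h2 := hone x⁻¹ (inv_mem hx) (fun h3 => hxE (by have := inv_mem h3; rwa [inv_inv] at this))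
    conv_lhs => rw [← h2]
    rw [cj_inf, cj_cj_inv, inf_comm]
    exact h1
  have hTM : TT e D ≤ M := (TT_le_PP e D).trans (PP_le_PH e _ hN.le _)
  have hcomm : ⁅W, TT e D⁆ ≤ E := by
    rw [Subgroup.commutator_le]
    intro x hx t ht
    rw [commutatorElement_def]
    by_cases hxE : x ∈ E
    · have h2 := hEn t (hTM ht) x⁻¹ (inv_mem hxE)
      have e1 : x * t * x⁻¹ * t⁻¹ = x * (t * x⁻¹ * t⁻¹) := by group
      rw [e1]
      exact mul_mem hxE h2
    · have h1 := v.Wn t (hTM ht) x⁻¹ (inv_mem hx)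
      have h3 : x * t * x⁻¹ * t⁻¹ ∈ W := by
        have e1 : x * t * x⁻¹ * t⁻¹ = x * (t * x⁻¹ * t⁻¹) := by group
        rw [e1]
        exact mul_mem hx h1
      have h4 : x * t * x⁻¹ ∈ M := by
        rw [← hcj x hx hxE]
        exact conj_mem_cj (hTM ht)
      rw [← v.WH]
      exact ⟨h3, H.mul_mem (hMH h4) (H.inv_mem (hMH (hTM ht)))⟩
  have hWp : IsPGroup p W := hQp.to_le hWQ
  have hnW : TT e D ≤ Subgroup.normalizer (W : Set G) := by
    intro t ht
    rw [Subgroup.mem_normalizer_iff_map_conj_eq]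
    exact cj_eq_of_nm (v.Wn t (hTM ht))
  have hfin := S0026.result (TT e D) W hnW (TT_coprime e D hWp) (Or.inr (by
    have := hWp.isNilpotent
    infer_instance))
  obtain ⟨y, hy, hyE⟩ : ∃ y ∈ W ⊓ Subgroup.centralizer (TT e D : Set G), y ∉ E := by
    by_contra hcon
    push Not at hcon
    apply hWE
    apply le_antisymm _ v.DW
    rw [← hfin]
    exact sup_le hcomm hcon
  refine ⟨y, v.notMem_H hy.1 hyE, fun t ht => (Subgroup.mem_centralizer_iff.1 hy.2 t ht).symm, ?_⟩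
  obtain ⟨m, hm⟩ := hWp ⟨y, hy.1⟩
  exact ⟨m, by simpa using congrArg Subtype.val hm⟩

/-- an element of order `p` -/
theorem exists_pow_p {y : G} (hy : y ≠ 1) (hp : ∃ m : ℕ, y ^ p ^ m = 1) :
    ∃ m : ℕ, y ^ m ≠ 1 ∧ (y ^ m) ^ p = 1 := by
  classical
  obtain ⟨hm, hmin⟩ := (⟨Nat.find_spec hp, fun m => Nat.find_min hp (m := m)⟩ :
    y ^ p ^ Nat.find hp = 1 ∧ ∀ m, m < Nat.find hp → ¬ y ^ p ^ m = 1)
  obtain ⟨n, hn⟩ : ∃ n, Nat.find hp = n + 1 := by
    cases h : Nat.find hp with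
    | zero =>
      rw [h, pow_zero, pow_one] at hm
      exact absurd hm hy
    | succ n => exact ⟨n, rfl⟩
  rw [hn] at hm hmin
  exact ⟨p ^ n, hmin n (Nat.lt_succ_self n), by rw [← pow_mul, ← pow_succ]; exact hm⟩

theorem exists_cent_of_DQ (hY : ∃ a b : T, a * b ≠ b * a) (h : EP H) (hN : MinN N H)
    (hDQ : DQ (p := p) H e D.psys fun _ => ∅) : ∃ y : G, y ≠ 1 ∧ y ^ p = 1 ∧ ∀ t ∈ TT e D, y * t = t * y := by
  obtain ⟨y, hy, hc, hm⟩ := exists_y_cent e D hY h hN hDQ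
  obtain ⟨m, h1, h2⟩ := exists_pow_p (fun h1 => hy (by rw [h1]; exact one_mem _)) hm
  refine ⟨y ^ m, h1, h2, fun t ht => ?_⟩
  exact (Commute.pow_left (hc t ht) m).eq

end

/-- **`G` simple with `HasFilt p G`** (S5745): an element of order `p` which centralises the torus -/
theorem exists_cent_G {G : Type*} [Group G] [Finite G] [IsSimpleGroup G] {H N : Subgroup G} {T : Type} [Group T]
    {k : ℕ} {e : N ≃* (Fin k → T)} (h : EPS H N e) {p : ℕ} [Fact p.Prime] (hG : HasFilt p G) (D : R1 p T) :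
    ∃ y : G, y ≠ 1 ∧ y ^ p = 1 ∧ ∀ t ∈ TT e D, y * t = t * y := by
  have hsimp := h.simple
  have hfin : Finite T := by
    have h1 : Finite (Fin k → T) := Finite.of_equiv N e.toEquiv
    exact Finite.of_surjective (fun f : Fin k → T => f ⟨0, h.pos⟩) fun t => ⟨fun _ => t, rfl⟩
  have hnab : ∃ a b : G, a * b ≠ b * a := by
    obtain ⟨a, b, hab⟩ := h.nab
    refine ⟨(e.symm (fun _ => a) : N), (e.symm (fun _ => b) : N), fun h3 => hab ?_⟩
    have h4 : e.symm (fun _ => a) * e.symm (fun _ => b) = e.symm (fun _ => b) * e.symm (fun _ => a) := Subtype.ext h3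
    rw [← map_mul, ← map_mul] at h4
    exact congrFun (e.symm.injective h4) ⟨0, h.pos⟩
  refine exists_cent_of_DQ e D h.nab h.ep h.toMinN (dq_of h hG hnab (j := MonoidHom.id G) Function.injective_id
    (by rw [MonoidHom.range_eq_top.2 (fun x => ⟨x, rfl⟩)]; infer_instance)
    (by rw [MonoidHom.range_eq_top.2 (fun x => ⟨x, rfl⟩)]; exact le_top) D.psys e (fun _ => ∅)
    (VV_ne_bot e (i := ⟨0, h.pos⟩) Set.empty_ne_univ))

/-- the same with an element of the torus, `k = 1` -/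
theorem exists_cent_one {G : Type*} [Group G] [Finite G] [IsSimpleGroup G] {H N : Subgroup G} {T : Type} [Group T]
    {e : N ≃* (Fin 1 → T)} (h : EPS H N e) {p : ℕ} [Fact p.Prime] (hG : HasFilt p G) (D : R1 p T) {t : T}
    (ht : t ∈ D.T0) : ∃ x : G, orderOf x = orderOf t ∧ ∃ y : G, y ≠ 1 ∧ y ^ p = 1 ∧ x * y = y * x := by
  obtain ⟨y, hy1, hyp, hc⟩ := exists_cent_G h hG D
  have h1 : (e.symm (fun _ => t) : G) ∈ TT e D := by
    refine (mem_pk e).2 ⟨(e.symm (fun _ => t)).2, fun i => ?_⟩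
    have h2 : cp e (e.symm (fun _ => t) : G) i = t := by
      rw [cp_eq e (e.symm (fun _ => t)).2]
      simp
    rw [h2]
    exact ht
  refine ⟨(e.symm (fun _ => t) : G), ?_, y, hy1, hyp, (hc _ h1).symm⟩
  have h3 : orderOf (e.symm (fun _ => t) : G) = orderOf (e.symm (fun _ => t)) := Subgroup.orderOf_coe _
  have h4 : orderOf (e.symm (fun _ => t)) = orderOf (fun _ : Fin 1 => t) :=
    orderOf_injective (e.symm : (Fin 1 → T) →* N) e.symm.injective _
  have h5 : orderOf (fun _ : Fin 1 => t) = orderOf t :=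
    orderOf_injective (Pi.constMonoidHom (Fin 1) T) (fun a b hab => congrFun hab 0) t
  rw [h3, h4, h5]

end Cfsg.Agent.H470.EPO
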